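import Cfsg.Agent.H6.U62I.D

set_option autoImplicit false
set_option maxRecDepth 100000
set_option Elab.async false

namespace Cfsg.H6.U62I

theorem ea : eaChk chk 148080050112590643456 sg 9 = true := by decide +kernel

theorem li4 : linChk chk 148080050112590643456 sg 9 A 4 = true := by decide +kernel

theorem li8 : linChk chk 148080050112590643456 sg 9 A 8 = true := by decide +kernel

theorem li12 : linChk chk 148080050112590643456 sg 9 A 12 = true := by decide +kernel

theorem li16 : linChk chk 148080050112590643456 sg 9 A 16 = true := by decide +kernel

theorem co2 : allR (cosChk chk 148080050112590643456 sg 9 4 M (Cs.map Prod.fst)) 16 8 = true := by decide +kernel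

theorem co6 : allR (cosChk chk 148080050112590643456 sg 9 4 M (Cs.map Prod.fst)) 48 8 = true := by decide +kernel

end Cfsg.H6.U62I
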