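import Cfsg.Agent.H6.U62I.D

set_option autoImplicit false
set_option maxRecDepth 100000
set_option Elab.async false

namespace Cfsg.H6.U62I

theorem li3 : linChk chk 148080050112590643456 sg 9 A 3 = true := by decide +kernel

theorem li7 : linChk chk 148080050112590643456 sg 9 A 7 = true := by decide +kernel

theorem li11 : linChk chk 148080050112590643456 sg 9 A 11 = true := by decide +kernel

theorem li15 : linChk chk 148080050112590643456 sg 9 A 15 = true := by decide +kernel

theorem co1 : allR (cosChk chk 148080050112590643456 sg 9 4 M (Cs.map Prod.fst)) 8 8 = true := by decide +kernel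

theorem co5 : allR (cosChk chk 148080050112590643456 sg 9 4 M (Cs.map Prod.fst)) 40 8 = true := by decide +kernel

end Cfsg.H6.U62I
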